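import Cfsg.Agent.Lib.Helper10.J3.IsoDefs

set_option autoImplicit false

namespace Cfsg.Agent.Lib.Helper10.J3

set_option maxRecDepth 100000 in
theorem vi1 : allB 17 131072 chkI = true := by decide +kernel

end Cfsg.Agent.Lib.Helper10.J3
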