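import Cfsg.Agent.Lib.Helper10.J3.VI0
import Cfsg.Agent.Lib.Helper10.J3.VI1
import Cfsg.Agent.Lib.Helper10.J3.Unitary

/-!
Orbits of the triple cover of the third Janko group on the lines of its 9-space.
-/

set_option autoImplicit false

namespace Cfsg.Agent.Lib.Helper10.J3

open Cfsg.Spor Matrix

theorem chkI_all : ∀ x < 2 ^ 18, chkI x = true := by
  intro x hx
  rcases lt_or_ge x 131072 with h | h
  · exact allB_spec 17 0 _ vi0 x (by omega) (by norm_num; omega)
  · exact allB_spec 17 131072 _ vi1 x h (by norm_num at hx ⊢; omega)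

theorem parity9 : ∀ b0 b1 b2 b3 b4 b5 b6 b7 b8 : Bool,
    ((b0.toNat + (b1.toNat + (b2.toNat + (b3.toNat + (b4.toNat + (b5.toNat + (b6.toNat + (b7.toNat + b8.toNat)))))))) % 2 = 0)
      ↔ (b0 ^^ (b1 ^^ (b2 ^^ (b3 ^^ (b4 ^^ (b5 ^^ (b6 ^^ (b7 ^^ b8)))))))) = false := by decide

theorem testBit_nzm (x j : ℕ) : (nzm x).testBit j = (x.testBit j || x.testBit (j + 9)) := by
  unfold nzm
  show (x ||| x >>> 9).testBit j = _
  rw [Nat.testBit_or, Nat.testBit_shiftRight, add_comm]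

theorem isoC_iff (x : ℕ) : isoC x = true ↔
    ((x.testBit 0 || x.testBit 9) ^^ ((x.testBit 1 || x.testBit 10) ^^ ((x.testBit 2 || x.testBit 11) ^^
    ((x.testBit 3 || x.testBit 12) ^^ ((x.testBit 4 || x.testBit 13) ^^ ((x.testBit 5 || x.testBit 14) ^^
    ((x.testBit 6 || x.testBit 15) ^^ ((x.testBit 7 || x.testBit 16) ^^ (x.testBit 8 || x.testBit 17))))))))) = false := by
  unfold isoC
  rw [Nat.beq_eq]
  simp only [bt_eq, testBit_nzm]
  exact parity9 _ _ _ _ _ _ _ _ _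

theorem bits1 : ∀ z : F9, (Nat.testBit 1 (ix z) = decide (z = 0)) ∧ Nat.testBit 1 (ix z + 9) = false := by decide
theorem bits512 : ∀ z : F9, (Nat.testBit 512 (ix z) = false) ∧ Nat.testBit 512 (ix z + 9) = decide (z = 0) := by decide
theorem bits513 : ∀ z : F9, (Nat.testBit 513 (ix z) = decide (z = 0)) ∧ Nat.testBit 513 (ix z + 9) = decide (z = 0) := by
  decide

section field
variable {F : Type*} [Field F]

theorem decV_one (ω : F) : decV ω 1 = Pi.single (0 : F9) (1 : F) := by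
  ext z
  unfold decV
  rw [(bits1 z).1, (bits1 z).2]
  by_cases hz : z = 0
  · subst hz; simp [b2]
  · simp [b2, hz]

theorem decV_512 (ω : F) : decV ω 512 = ω • Pi.single (0 : F9) (1 : F) := by
  ext z
  unfold decV
  rw [(bits512 z).1, (bits512 z).2]
  by_cases hz : z = 0
  · subst hz; simp [b2]
  · simp [b2, hz]

theorem decV_513 (ω : F) : decV ω 513 = (1 + ω) • Pi.single (0 : F9) (1 : F) := by
  ext z
  unfold decV
  rw [(bits513 z).1, (bits513 z).2]
  by_cases hz : z = 0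
  · subst hz; simp [b2]
  · simp [b2, hz]

variable (h2 : (2 : F) = 0) (ω : F) (hω : ω ^ 2 + ω + 1 = 0)
include h2 hω

theorem cube_eq (a b : Bool) : ((b2 a : F) + b2 b * ω) ^ 3 = b2 (a || b) := by
  cases a <;> cases b <;> simp [b2]
  · exact omega_cube ω hω
  · linear_combination (ω + 2) * hω - h2

theorem iso_iff (x : ℕ) : (∑ z, (decV ω x z) ^ 3 = 0) ↔ isoC x = true := by
  rw [isoC_iff, sum_F9]
  have e : ∀ z : F9, (decV ω x z) ^ 3 = b2 (x.testBit (ix z) || x.testBit (ix z + 9)) :=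
    fun z => cube_eq h2 ω hω _ _
  simp only [e]
  have e0 : ix (0, 0) = 0 := rfl
  have e1 : ix (0, 1) = 1 := rfl
  have e2 : ix (0, 2) = 2 := rfl
  have e3 : ix (1, 0) = 3 := rfl
  have e4 : ix (1, 1) = 4 := rfl
  have e5 : ix (1, 2) = 5 := rfl
  have e6 : ix (2, 0) = 6 := rfl
  have e7 : ix (2, 1) = 7 := rfl
  have e8 : ix (2, 2) = 8 := rfl
  simp only [e0, e1, e2, e3, e4, e5, e6, e7, e8, Nat.reduceAdd]
  have hb : ∀ b : Bool, (b2 b : F) = 0 ↔ b = false := by
    intro b; cases b <;> simp [b2]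
  rw [← hb]
  simp only [b2_xor h2]
  constructor <;> intro h <;> linear_combination h

theorem reach : ∀ x < 2 ^ 18, x ≠ 0 → isoC x = true →
    ∃ g ∈ threeJ3 F ω, (g : Matrix F9 F9 F) *ᵥ decV ω 72 = decV ω x := by
  obtain ⟨su, hsu, hsue⟩ := exists_su h2 ω hω
  obtain ⟨sv, hsv, hsve⟩ := exists_sv h2 ω hω
  obtain ⟨-, -, -, -, -, -, ⟨sz, hsz, hsze⟩, -, -⟩ := structure_threeJ3 h2 ω hω
  have hu1 : decM ω uC * decM ω uH' = 1 := by
    apply mul_eq_one_comm.mp
    have := eqMul_sound h2 ω hω uH_ok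
    rw [decM_id h2 ω hω] at this
    exact this
  have hv1 : decM ω vC * decM ω vH' = 1 := by
    apply mul_eq_one_comm.mp
    have := eqMul_sound h2 ω hω vH_ok
    rw [decM_id h2 ω hω] at this
    exact this
  have key : ∀ d x, dDep x = d → x < 2 ^ 18 → x ≠ 0 → isoC x = true →
      ∃ g ∈ threeJ3 F ω, (g : Matrix F9 F9 F) *ᵥ decV ω 72 = decV ω x := by
    intro d
    induction d using Nat.strong_induction_on with
    | _ d ih =>
      intro x hxd hx hx0 hxi
      have h := chkI_all x hx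
      unfold chkI at h
      simp only [Bool.or_eq_true, Nat.beq_eq, okP, Bool.and_eq_true, Nat.blt_eq,
        Bool.not_eq_eq_eq_not, Bool.not_true] at h
      rcases h with h | h | h | h | h | h
      · exact absurd h hx0
      · rw [hxi] at h; exact absurd h (by decide)
      · exact ⟨1, Subgroup.one_mem _, by rw [h, Units.val_one, Matrix.one_mulVec]⟩
      · obtain ⟨hp0, hpi, hpd⟩ := h
        have hp0' : appC uH' x ≠ 0 := by
          intro h0; rw [h0] at hp0; exact absurd hp0 (by decide)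
        obtain ⟨g, hg, hge⟩ := ih _ (hxd ▸ hpd) _ rfl (appC_lt _ _) hp0' hpi
        refine ⟨su * g, Subgroup.mul_mem _ hsu hg, ?_⟩
        rw [Units.val_mul, ← Matrix.mulVec_mulVec, hge, ← decM_mulVec h2 ω hω, Matrix.mulVec_mulVec, hsue, hu1,
          Matrix.one_mulVec]
      · obtain ⟨hp0, hpi, hpd⟩ := h
        have hp0' : appC vH' x ≠ 0 := by
          intro h0; rw [h0] at hp0; exact absurd hp0 (by decide)
        obtain ⟨g, hg, hge⟩ := ih _ (hxd ▸ hpd) _ rfl (appC_lt _ _) hp0' hpi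
        refine ⟨sv * g, Subgroup.mul_mem _ hsv hg, ?_⟩
        rw [Units.val_mul, ← Matrix.mulVec_mulVec, hge, ← decM_mulVec h2 ω hω, Matrix.mulVec_mulVec, hsve, hv1,
          Matrix.one_mulVec]
      · obtain ⟨hp0, hpi, hpd⟩ := h
        have hp0' : wmul (wmul x) ≠ 0 := by
          intro h0; rw [h0] at hp0; exact absurd hp0 (by decide)
        obtain ⟨g, hg, hge⟩ := ih _ (hxd ▸ hpd) _ rfl (wmul_lt _ (wmul_lt _ hx)) hp0' hpi
        refine ⟨sz * g, Subgroup.mul_mem _ hsz hg, ?_⟩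
        rw [Units.val_mul, ← Matrix.mulVec_mulVec, hge, decV_wmul h2 ω hω _ (wmul_lt _ hx), decV_wmul h2 ω hω _ hx,
          hsze, Matrix.smul_mulVec, Matrix.one_mulVec, smul_smul, smul_smul, ← pow_two, ← pow_succ,
          omega_cube ω hω, one_smul]
  intro x hx hx0 hxi
  exact key _ x rfl hx hx0 hxi

end field

theorem nrm_app3 (i : ℕ) (hi : i < nT) : nrm (appC (dT i) 1) = yL i ∧ nrm (appC (dT i) 512) = yL i ∧
    nrm (appC (dT i) 513) = yL i := by
  have h := (chkTall_all i hi).2.2.2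
  unfold chkY at h
  simp only [Bool.and_eq_true, Nat.beq_eq] at h
  exact ⟨h.1, h.2.1, h.2.2.1⟩

theorem col0_cases (j : ℕ) (hj : j < nH) : col (dH j) 0 = 1 ∨ col (dH j) 0 = 512 ∨ col (dH j) 0 = 513 := by
  have h' := (chkHall_all j hj).2.2.2
  unfold chkH0 at h'
  simp only [Bool.and_eq_true, Bool.or_eq_true, Nat.beq_eq] at h'
  exact h'.1

section orbits
variable {F : Type*} [Field F] [Fintype F]

theorem decV_surj (hF : Fintype.card F = 4) (ω : F) (hω : ω ^ 2 + ω + 1 = 0) (v : F9 → F) :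
    ∃ x < 2 ^ 18, decV ω x = v := by
  classical
  have h2 := two_eq_zero hF
  let f : Fin (2 ^ 18) → (F9 → F) := fun i => decV ω i
  have hinj : Function.Injective f := by
    intro a b h
    exact Fin.ext (decV_inj h2 ω hω a.2 b.2 h)
  have hcard : Fintype.card (Fin (2 ^ 18)) = Fintype.card (F9 → F) := by
    rw [Fintype.card_fin, Fintype.card_fun, hF]
    have : Fintype.card F9 = 9 := by decide
    rw [this]
    norm_num
  obtain ⟨a, ha⟩ := ((Fintype.bijective_iff_injective_and_card f).2 ⟨hinj, hcard⟩).2 v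
  exact ⟨a, a.2, ha⟩

theorem iso_transitive (hF : Fintype.card F = 4) (ω : F) (hω : ω ^ 2 + ω + 1 = 0) (v w : F9 → F)
    (hv : v ≠ 0) (hw : w ≠ 0) (hvi : ∑ z, (v z) ^ 3 = 0) (hwi : ∑ z, (w z) ^ 3 = 0) :
    ∃ g ∈ threeJ3 F ω, ∃ c : F, c ≠ 0 ∧ (g : Matrix F9 F9 F) *ᵥ v = c • w := by
  have h2 := two_eq_zero hF
  have hz : decV ω 0 = 0 := by
    ext z; simp [decV, b2]
  obtain ⟨x, hx, rfl⟩ := decV_surj hF ω hω v
  obtain ⟨y, hy, rfl⟩ := decV_surj hF ω hω w
  have hx0 : x ≠ 0 := by rintro rfl; exact hv hz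
  have hy0 : y ≠ 0 := by rintro rfl; exact hw hz
  obtain ⟨g, hg, hge⟩ := reach h2 ω hω x hx hx0 ((iso_iff h2 ω hω x).1 hvi)
  obtain ⟨k, hk, hke⟩ := reach h2 ω hω y hy hy0 ((iso_iff h2 ω hω y).1 hwi)
  refine ⟨k * g⁻¹, Subgroup.mul_mem _ hk (Subgroup.inv_mem _ hg), 1, one_ne_zero, ?_⟩
  rw [one_smul, Units.val_mul, ← hge, Matrix.mulVec_mulVec, mul_assoc, Units.inv_mul, mul_one, hke]

theorem lines_ncard (hF : Fintype.card F = 4) (ω : F) (hω : ω ^ 2 + ω + 1 = 0) :
    {L : Submodule F (F9 → F) | ∃ g ∈ threeJ3 F ω,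
      L = F ∙ ((g : Matrix F9 F9 F) *ᵥ (Pi.single (0 : F9) (1 : F) : F9 → F))}.ncard = 23256 := by
  have h2 := two_eq_zero hF
  obtain ⟨-, -, -, -, -, -, -, hmem, hprod⟩ := structure_threeJ3 h2 ω hω
  have hw0 : ω ≠ 0 := by
    rintro rfl
    simp at hω
  have hw2 : (1 : F) + ω = ω ^ 2 := by linear_combination (-1 : F) * hω + (1 + ω) * h2
  have hw1 : (1 : F) + ω ≠ 0 := by rw [hw2]; exact pow_ne_zero _ hw0
  set Lf : ℕ → Submodule F (F9 → F) := fun i => F ∙ (decM ω (dT i) *ᵥ (Pi.single (0 : F9) (1 : F) : F9 → F)) with hLf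
  have hset : {L : Submodule F (F9 → F) | ∃ g ∈ threeJ3 F ω,
      L = F ∙ ((g : Matrix F9 F9 F) *ᵥ (Pi.single (0 : F9) (1 : F) : F9 → F))} = Lf '' (Finset.range nT : Set ℕ) := by
    ext L
    constructor
    · rintro ⟨g, hg, rfl⟩
      obtain ⟨i, hi, j, hj, he⟩ := hmem g hg
      refine ⟨i, by simpa using hi, ?_⟩
      have hcol : decM ω (dH j) *ᵥ (Pi.single (0 : F9) (1 : F) : F9 → F) = decV ω (col (dH j) 0) := by
        rw [Matrix.mulVec_single_one]
        rfl
      have hsc : ∃ c : F, c ≠ 0 ∧ decV ω (col (dH j) 0) = c • (Pi.single (0 : F9) (1 : F) : F9 → F) := by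
        rcases col0_cases j hj with e | e | e
        · exact ⟨1, one_ne_zero, by rw [e, decV_one, one_smul]⟩
        · exact ⟨ω, hw0, by rw [e, decV_512]⟩
        · exact ⟨1 + ω, hw1, by rw [e, decV_513]⟩
      obtain ⟨c, hc, hce⟩ := hsc
      rw [he, ← Matrix.mulVec_mulVec, hcol, hce, Matrix.mulVec_smul]
      exact (Submodule.span_singleton_smul_eq (IsUnit.mk0 c hc) _).symm
    · rintro ⟨i, hi, rfl⟩
      have hi' : i < nT := by simpa using hi
      obtain ⟨g, hg, he⟩ := hprod i hi' jid (by decide)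
      refine ⟨g, hg, ?_⟩
      rw [he, dH_jid, decM_id h2 ω hω, mul_one]
  rw [hset, Set.ncard_image_of_injOn, Set.ncard_coe_finset, Finset.card_range]
  · rfl
  · intro i hi i' hi' he
    have hi1 : i < nT := by simpa using hi
    have hi1' : i' < nT := by simpa using hi'
    obtain ⟨c, hc⟩ := (Submodule.span_singleton_eq_span_singleton).1 he
    have hc' : (c : F) • (decM ω (dT i) *ᵥ (Pi.single (0 : F9) (1 : F) : F9 → F)) =
        decM ω (dT i') *ᵥ (Pi.single (0 : F9) (1 : F) : F9 → F) := hc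
    rw [← Matrix.mulVec_smul] at hc'
    have hr : decM ω (dT i') *ᵥ (Pi.single (0 : F9) (1 : F) : F9 → F) = decV ω (appC (dT i') 1) := by
      rw [← decV_one ω, decM_mulVec h2 ω hω]
    have hl : ∃ x, (x = 1 ∨ x = 512 ∨ x = 513) ∧ (c : F) • (Pi.single (0 : F9) (1 : F) : F9 → F) = decV ω x := by
      rcases four_cases hF ω hω (c : F) c.ne_zero with e | e | e
      · exact ⟨1, Or.inl rfl, by rw [e, one_smul, decV_one]⟩
      · exact ⟨512, Or.inr (Or.inl rfl), by rw [e, decV_512]⟩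
      · exact ⟨513, Or.inr (Or.inr rfl), by rw [e, decV_513, hw2]⟩
    obtain ⟨x, hx, hxe⟩ := hl
    rw [hxe, decM_mulVec h2 ω hω, hr] at hc'
    have h3 := decV_inj h2 ω hω (appC_lt _ _) (appC_lt _ _) hc'
    have h4 : yL i = yL i' := by
      rw [← (nrm_app3 i' hi1').1, ← h3]
      rcases hx with rfl | rfl | rfl
      · exact (nrm_app3 i hi1).1.symm
      · exact (nrm_app3 i hi1).2.1.symm
      · exact (nrm_app3 i hi1).2.2.symm
    exact yL_inj i hi1 i' hi1' h4

end orbits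

end Cfsg.Agent.Lib.Helper10.J3
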