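import Cfsg.Agent.Lib.Helper10.J3.DataI

/-!
The check of the transitivity on the isotropic vectors.
-/

set_option autoImplicit false

namespace Cfsg.Agent.Lib.Helper10.J3

def uH' : ℕ := 0x1a0070032190984c08c00582c0944a00804004c
def vH' : ℕ := 0x34000980048600c80016005228108c0503800100

/-- the support of a vector code (in the nine low bits). -/
def nzm (x : ℕ) : ℕ := Nat.lor x (Nat.shiftRight x 9)

/-- the vector of the code is isotropic. -/
def isoC (x : ℕ) : Bool :=
  Nat.beq (Nat.mod (Nat.add (bt (nzm x) 0) (Nat.add (bt (nzm x) 1) (Nat.add (bt (nzm x) 2) (Nat.add (bt (nzm x) 3)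
    (Nat.add (bt (nzm x) 4) (Nat.add (bt (nzm x) 5) (Nat.add (bt (nzm x) 6) (Nat.add (bt (nzm x) 7)
    (bt (nzm x) 8))))))))) 2) 0

def okP (p x : ℕ) : Bool := !(Nat.beq p 0) && (isoC p && Nat.blt (dDep p) (dDep x))

def chkI (x : ℕ) : Bool :=
  Nat.beq x 0 || (!(isoC x) || (Nat.beq x 72 || (okP (appC uH' x) x || (okP (appC vH' x) x ||
    okP (wmul (wmul x)) x))))

end Cfsg.Agent.Lib.Helper10.J3
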